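import Cfsg.Agent.Lib.TC.Enc

namespace Cfsg.Agent.Lib.CosetCert.D.HeN.St1.CT

open Cfsg.Agent.Lib.TC.Enc

set_option maxRecDepth 100000

/-- The chunks of the certificate. -/
noncomputable def tree : Tr Nat :=
  (Tr.leaf (nat_lit 0x701011ef8dcf218ed5efda04047388fbd85376f39a410098ce32c0fad456c4904096b475ad07ba7cac6010112a638ba10a1facb704093a22c2507361c235810256a81abe0c8018af5040929e8d2605a77d241410014856a698e71ea67304091942b17049f1a154c10010762e6e06480e632040910e2a0f4a107b16081000c4c26300a45e42d1040020d31098088018a80100821a2010041c42140040a8020083a0019800))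

end Cfsg.Agent.Lib.CosetCert.D.HeN.St1.CT
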